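import Cfsg.Agent.Lib.Helper18.StEmbE6.Tab

/-!
# The embedding of the roots of type E₆ into those of type E₇: check, part 1
-/

set_option autoImplicit false

namespace Cfsg.Agent.Lib.Helper18.StAbs

open Cfsg Cfsg.Lie Cfsg.Lie.ChevalleyDatum

set_option maxRecDepth 100000 in
theorem embchk_E6_0 :
    embChunkB chevE6 chevE7 embE6 (List.range' 0 36) = true := by decide +kernel

end Cfsg.Agent.Lib.Helper18.StAbs
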