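import Cfsg.Agent.Lib.Helper18.StEmbE6.Chk
import Cfsg.Agent.Lib.Helper18.StEmbE6.R0
import Cfsg.Agent.Lib.Helper18.StEmbE6.R1
import Cfsg.Agent.Lib.Helper18.StCovCent
import Cfsg.Agent.Lib.Helper18.StCert.E6x
import Cfsg.Agent.Lib.Helper18.StCert.E7x

/-!
# Type E₆: the kernel of the homomorphism from the group presented by (R1), (R2)

Over a finite field the kernel of the homomorphism from the group presented by Steinberg's relators
(R1), (R2) of type E₆ onto the Chevalley group is the centre, isomorphic to the group of cube roots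
of unity of the field.
-/

set_option autoImplicit false

namespace Cfsg.Agent.Lib.Helper18.StAbs

open Cfsg Cfsg.Lie Cfsg.Lie.ChevalleyDatum

theorem embrow_E6 (r : ℕ) (hr : r < chevE6.nroots) :
    embRowB chevE6 chevE7 embE6 r = true := by
  have hn : chevE6.nroots = 72 := by decide
  rw [hn] at hr
  have h : r ∈ List.range' 0 36 ∨
      r ∈ List.range' 36 36 := by
    simp only [List.mem_range'_1]
    omega
  rcases h with h | h
  · exact List.all_eq_true.mp embchk_E6_0 r h
  · exact List.all_eq_true.mp embchk_E6_1 r h

/-- the membership of the datum in the list of the exceptional ones -/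
theorem mem_exc_E6 : chevE6 ∈ [chevG2, chevB2, chevD4, chevF4, chevE6, chevE7, chevE8] := by simp

/-- over a finite field the kernel of the homomorphism onto the Chevalley group of type E₆ is
isomorphic to the group of the roots of unity of order dividing 3 -/
theorem ker_equiv_E6 {K : Type*} [Field K] [Finite K] :
    Nonempty ((powMonoidHom 3 : Kˣ →* Kˣ).ker ≃* (covHom (K := K) mem_exc_E6).ker) :=
  ker_covHom_equiv mem_exc_E6 cart_E6 cycM_E6 cycP_E6 cycW_E6 0 3 cycchk_E6
    (by simp : chevE7 ∈ [chevG2, chevB2, chevD4, chevF4, chevE6, chevE7, chevE8]) embE6 sl_E6 sl_E7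
    embcov_E6 embrow_E6 embsimp_E6 cart_E7 (by decide) 63 (by decide) (-2) (1) (1) sepchk_E6
    (by norm_num)

end Cfsg.Agent.Lib.Helper18.StAbs
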