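import Cfsg.Agent.Lib.Helper18.StEmbE6.Tab

/-!
# The embedding of the roots of type E₆ into those of type E₇: further checks
-/

set_option autoImplicit false

namespace Cfsg.Agent.Lib.Helper18.StAbs

open Cfsg Cfsg.Lie Cfsg.Lie.ChevalleyDatum

set_option maxRecDepth 100000 in
theorem embcov_E6 : embE6.map Prod.fst = List.range chevE6.nroots := by decide +kernel

set_option maxRecDepth 100000 in
theorem embsimp_E6 : simpB chevE6 chevE7 embE6 = true := by decide +kernel

set_option maxRecDepth 100000 in
theorem cycchk_E6 : cycChk chevE6 cycM_E6 cycP_E6 cycW_E6 0 3 = true := by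
  decide +kernel

set_option maxRecDepth 100000 in
theorem sepchk_E6 : ((List.range chevE6.rank).map
    (fun i => cycP_E6.getD i 0 * chevE7.cartan i 63)).sum = -2 := by decide +kernel

end Cfsg.Agent.Lib.Helper18.StAbs
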