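import Cfsg.Agent.Lib.Helper18.StEmb
import Cfsg.Agent.Lib.Helper18.StCentCyc

/-!
# The embedding of the roots of type E₆ into those of type E₇: data
-/

set_option autoImplicit false

namespace Cfsg.Agent.Lib.Helper18.StAbs

open Cfsg Cfsg.Lie Cfsg.Lie.ChevalleyDatum

set_option maxRecDepth 100000 in
set_option maxHeartbeats 4000000 in
/-- for each root of type E₆: its image among the roots of type E₇, and a sign -/
def embE6 : List (ℕ × ℕ × ℤ) :=
  [(0, 6, 1), (1, 10, 1), (2, 13, 1), (3, 15, 1), (4, 16, 1), (5, 19, 1),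
  (6, 21, 1), (7, 22, 1), (8, 24, 1), (9, 25, 1), (10, 26, 1), (11, 28, 1),
  (12, 29, 1), (13, 30, 1), (14, 31, 1), (15, 32, 1), (16, 35, 1), (17, 37, 1),
  (18, 38, 1), (19, 40, 1), (20, 41, 1), (21, 42, 1), (22, 44, 1), (23, 45, 1),
  (24, 46, 1), (25, 47, 1), (26, 49, 1), (27, 50, 1), (28, 51, 1), (29, 52, 1),
  (30, 54, 1), (31, 55, 1), (32, 56, 1), (33, 58, 1), (34, 59, 1), (35, 61, 1),
  (36, 64, 1), (37, 66, 1), (38, 67, 1), (39, 69, 1), (40, 70, 1), (41, 71, 1),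
  (42, 73, 1), (43, 74, 1), (44, 75, 1), (45, 76, 1), (46, 78, 1), (47, 79, 1),
  (48, 80, 1), (49, 81, 1), (50, 83, 1), (51, 84, 1), (52, 85, 1), (53, 87, 1),
  (54, 88, 1), (55, 90, 1), (56, 93, 1), (57, 94, 1), (58, 95, 1), (59, 96, 1),
  (60, 97, 1), (61, 99, 1), (62, 100, 1), (63, 101, 1), (64, 103, 1), (65, 104, 1),
  (66, 106, 1), (67, 109, 1), (68, 110, 1), (69, 112, 1), (70, 115, 1), (71, 119, 1)]

/-- solutions of the equations with the Cartan matrix of type E₆ as coefficients -/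
def cycM_E6 : List (List ℤ) :=
  [[0, 1, -1, 2, 0, -2],
  [0, 2, 0, 3, 1, -1],
  [0, 2, 0, 4, 1, -2],
  [0, 3, 0, 6, 2, -2],
  [0, 2, 0, 4, 2, -1],
  [0, 1, 0, 2, 1, 0]]

/-- the exponents of the central elements of type E₆ -/
def cycP_E6 : List ℤ := [1, 0, 2, 0, 1, 2]

/-- a solution of the equation giving the order of the centre of type E₆ -/
def cycW_E6 : List ℤ := [4, 3, 5, 6, 4, 2]

end Cfsg.Agent.Lib.Helper18.StAbs
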